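import Mathlib
import Cfsg.Agent.Lib.Nilpotent.Elements
import Cfsg.Agent.Lib.Nilpotent.Parts
import Cfsg.Agent.Lib.Nilpotent.OneMMN.Generic
import Cfsg.Agent.Lib.Nilpotent.OneMMN.PartA

/-!
# Nilpotent minimal covers: the replacement lemma and abelian Sylow subgroups

A proper subgroup contains at most one member of a minimal cover.  When a Sylow `p`-subgroup
`P` is abelian and either cyclic or not elementary abelian, `C_G(P)` is a member of every
nilpotent minimal cover of a group with trivial centre.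
-/

set_option autoImplicit false

namespace Cfsg.Agent.Lib.Nilpotent.MinCover

open Subgroup Cfsg.Agent.Lib.Nilpotent.OneMMN

variable {G : Type*} [Group G] [Finite G]

/-- A nilpotent minimal cover. -/
structure Cov (𝓐 : Finset (Subgroup G)) : Prop where
  prop : ∀ A ∈ 𝓐, A ≠ ⊤
  cov : ∀ g : G, ∃ A ∈ 𝓐, g ∈ A
  min : ∀ 𝓑 : Finset (Subgroup G), (∀ A ∈ 𝓑, A ≠ ⊤) ∧ (∀ g : G, ∃ A ∈ 𝓑, g ∈ A) →
    𝓐.card ≤ 𝓑.card
  nil : ∀ A ∈ 𝓐, Group.IsNilpotent ↥A

variable {𝓐 : Finset (Subgroup G)}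

/-- A proper subgroup contains at most one member of a minimal cover. -/
theorem Cov.key (h : Cov 𝓐) {H : Subgroup G} (hH : H ≠ ⊤) {A B : Subgroup G} (hA : A ∈ 𝓐)
    (hB : B ∈ 𝓐) (hAH : A ≤ H) (hBH : B ≤ H) : A = B := by
  classical
  by_contra hne
  set F := 𝓐.filter (fun X => ¬ X ≤ H) with hF
  have h1 : (insert H F).card ≤ F.card + 1 := Finset.card_insert_le _ _
  have hAF : A ∉ F := by
    simp only [hF, Finset.mem_filter, not_and, not_not]
    exact fun _ => hAH
  have hBF : B ∉ F := by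
    simp only [hF, Finset.mem_filter, not_and, not_not]
    exact fun _ => hBH
  have h2 : (insert A (insert B F)).card = F.card + 2 := by
    rw [Finset.card_insert_of_notMem, Finset.card_insert_of_notMem hBF]
    simp only [Finset.mem_insert, not_or]
    exact ⟨hne, hAF⟩
  have h3 : (insert A (insert B F)) ⊆ 𝓐 := by
    intro X hX
    simp only [Finset.mem_insert] at hX
    rcases hX with rfl | rfl | hX
    · exact hA
    · exact hB
    · exact (Finset.mem_filter.1 hX).1
  have h4 := Finset.card_le_card h3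
  have h5 := h.min (insert H F) ⟨?_, ?_⟩
  · omega
  · intro X hX
    simp only [Finset.mem_insert] at hX
    rcases hX with rfl | hX
    · exact hH
    · exact h.prop X (Finset.mem_filter.1 hX).1
  · intro g
    obtain ⟨X, hX, hg⟩ := h.cov g
    by_cases hXH : X ≤ H
    · exact ⟨H, Finset.mem_insert_self _ _, hXH hg⟩
    · exact ⟨X, Finset.mem_insert_of_mem (Finset.mem_filter.2 ⟨hX, hXH⟩), hg⟩

variable {p : ℕ} [hp : Fact p.Prime]

/-- All Sylow `p`-subgroups of `G` are commutative. -/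
def SylAb (p : ℕ) (G : Type*) [Group G] : Prop :=
  ∀ T : Sylow p G, ∀ x ∈ (T : Subgroup G), ∀ y ∈ (T : Subgroup G), x * y = y * x

omit [Finite G] in
theorem El_of_pow {x : G} {k : ℕ} (h : x ^ p ^ k = 1) : El p x := by
  have h1 : orderOf x ∣ p ^ k := orderOf_dvd_of_pow_eq_one h
  obtain ⟨j, -, hj⟩ := (Nat.dvd_prime_pow hp.out).1 h1
  exact ⟨j, hj⟩

omit [Finite G] in
theorem el_pow_eq_one {x : G} (h : El p x) : ∃ k : ℕ, x ^ p ^ k = 1 := by
  obtain ⟨k, hk⟩ := h
  exact ⟨k, by rw [← hk, pow_orderOf_eq_one]⟩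

/-- Two `p`-elements of a nilpotent subgroup commute when Sylow `p`-subgroups are abelian. -/
theorem commute_of_el_of_nilpotent (hab : SylAb p G) {A : Subgroup G} (hA : Group.IsNilpotent ↥A)
    {x y : G} (hx : x ∈ A) (hy : y ∈ A) (hxe : El p x) (hye : El p y) : x * y = y * x := by
  classical
  haveI := hA
  obtain ⟨S⟩ : Nonempty (Sylow p ↥A) := inferInstance
  have hx' : (⟨x, hx⟩ : ↥A) ∈ (S : Subgroup ↥A) := by
    obtain ⟨k, hk⟩ := el_pow_eq_one hxe
    refine Cfsg.Agent.Lib.Nilpotent.Elements.mem_sylow_of_pow_eq_one S (k := k) ?_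
    exact Subtype.ext (by simpa using hk)
  have hy' : (⟨y, hy⟩ : ↥A) ∈ (S : Subgroup ↥A) := by
    obtain ⟨k, hk⟩ := el_pow_eq_one hye
    refine Cfsg.Agent.Lib.Nilpotent.Elements.mem_sylow_of_pow_eq_one S (k := k) ?_
    exact Subtype.ext (by simpa using hk)
  have hS : IsPGroup p ((S : Subgroup ↥A).map A.subtype) := S.isPGroup'.map _
  obtain ⟨T, hT⟩ := hS.exists_le_sylow
  exact hab T x (hT ⟨_, hx', rfl⟩) y (hT ⟨_, hy', rfl⟩)

/-- In a nilpotent subgroup with abelian Sylow `p`-subgroups (of the ambient group), a `p`-element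
is central. -/
theorem le_cent_of_el (hab : SylAb p G) {A : Subgroup G} (hA : Group.IsNilpotent ↥A) {u : G}
    (hu : u ∈ A) (hue : El p u) : A ≤ centralizer ({u} : Set G) := by
  intro a ha
  rw [mem_centralizer_singleton_iff]
  obtain ⟨y, z, hyz, hy, hz, hye, hzc⟩ := Cfsg.Agent.Lib.Nilpotent.Parts.exists_parts a p
  have hyA : y ∈ A := (zpowers_le.2 ha) hy
  have hzA : z ∈ A := (zpowers_le.2 ha) hz
  have h1 : y * u = u * y :=
    commute_of_el_of_nilpotent hab hA hyA hu (by obtain ⟨k, hk⟩ := hye; exact El_of_pow hk) hue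
  have h2 : z * u = u * z := by
    haveI := hA
    have hcop : Nat.Coprime (orderOf (⟨z, hzA⟩ : ↥A)) (orderOf (⟨u, hu⟩ : ↥A)) := by
      rw [Subgroup.orderOf_mk, Subgroup.orderOf_mk]
      obtain ⟨k, hk⟩ := hue
      rw [hk]
      exact Nat.Coprime.pow_right _ hzc
    have := Cfsg.Agent.Lib.Nilpotent.Elements.commute_of_coprime_orderOf hcop
    have h3 := congrArg Subtype.val this.eq
    simpa using h3
  have h3 : a * u = u * a := by
    rw [hyz, mul_assoc, h2, ← mul_assoc, h1, mul_assoc]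
  exact h3

/-- A noncentral element has a proper centralizer. -/
theorem cent_ne_top (hZ : center G = ⊥) {u : G} (hu : u ≠ 1) :
    centralizer ({u} : Set G) ≠ ⊤ := by
  intro h
  apply hu
  have : u ∈ center G := by
    rw [mem_center_iff]
    intro g
    have hg : g ∈ centralizer ({u} : Set G) := by rw [h]; trivial
    exact (mem_centralizer_singleton_iff.1 hg)
  rw [hZ] at this
  exact this

theorem mem_of_mem_normalizer (P : Sylow p G) {w : G} (hw : El p w)
    (hwN : w ∈ normalizer ((P : Subgroup G) : Set G)) : w ∈ (P : Subgroup G) := by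
  have h1 : (zpowers w) ⊓ normalizer ((P : Subgroup G) : Set G) = (zpowers w) ⊓ P :=
    hw.isPGroup.inf_normalizer_sylow P
  have h2 : w ∈ (zpowers w) ⊓ normalizer ((P : Subgroup G) : Set G) :=
    Subgroup.mem_inf.2 ⟨mem_zpowers w, hwN⟩
  rw [h1] at h2
  exact h2.2

/-- The data making `C_G(P)` a member of the cover. -/
theorem centralizer_mem (h : Cov 𝓐) (hZ : center G = ⊥) (hab : SylAb p G) (P : Sylow p G)
    {x₀ : G} (hx₀ : x₀ ∈ (P : Subgroup G)) (e : ℕ)
    (he : ∀ x ∈ (P : Subgroup G), x ^ p ^ (e + 1) = 1) (hne : x₀ ^ p ^ e ≠ 1)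
    (hgen : 1 ≤ e ∨ (P : Subgroup G) ≤ zpowers x₀) :
    centralizer ((P : Subgroup G) : Set G) ∈ 𝓐 := by
  classical
  have hPel : ∀ x ∈ (P : Subgroup G), El p x := fun x hx => El_of_pow (he x hx)
  have hPc : ∀ x ∈ (P : Subgroup G), ∀ y ∈ (P : Subgroup G), x * y = y * x := hab P
  set u₀ := x₀ ^ p ^ e with hu₀
  have hu₀P : u₀ ∈ (P : Subgroup G) := (P : Subgroup G).pow_mem hx₀ _
  obtain ⟨A₀, hA₀, hx₀A⟩ := h.cov x₀
  have hu₀A : u₀ ∈ A₀ := A₀.pow_mem hx₀A _
  have hA₀le : A₀ ≤ centralizer ({u₀} : Set G) :=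
    le_cent_of_el hab (h.nil A₀ hA₀) hu₀A (hPel _ hu₀P)
  have huniq0 : ∀ B ∈ 𝓐, u₀ ∈ B → B = A₀ := fun B hB hu =>
    h.key (cent_ne_top hZ hne) hB hA₀
      (le_cent_of_el hab (h.nil B hB) hu (hPel _ hu₀P)) hA₀le
  -- elements killed by the power map lie in `A₀`
  have hK : ∀ w ∈ (P : Subgroup G), w ^ p ^ e = 1 → w ∈ A₀ := by
    intro w hw hw1
    obtain ⟨B, hB, hxB⟩ := h.cov (x₀ * w)
    have hcomm : Commute x₀ w := hPc x₀ hx₀ w hw
    have h1 : (x₀ * w) ^ p ^ e = u₀ := by rw [hcomm.mul_pow, hw1, mul_one]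
    have h2 : u₀ ∈ B := by rw [← h1]; exact B.pow_mem hxB _
    have h3 := huniq0 B hB h2
    rw [h3] at hxB
    have h4 := A₀.mul_mem (A₀.inv_mem hx₀A) hxB
    simpa using h4
  -- `P ≤ A₀`
  have hPA : (P : Subgroup G) ≤ A₀ := by
    rcases hgen with he1 | hz
    · intro x hx
      by_cases hx1 : x ^ p ^ e = 1
      · exact hK x hx hx1
      · set u := x ^ p ^ e with hu
        have huP : u ∈ (P : Subgroup G) := (P : Subgroup G).pow_mem hx _
        have hup : u ^ p = 1 := by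
          rw [hu, ← pow_mul, ← pow_succ]
          exact he x hx
        have hu1 : u ^ p ^ e = 1 := by
          obtain ⟨d, hd⟩ : ∃ d, e = d + 1 := ⟨e - 1, by omega⟩
          rw [hd, pow_succ, mul_comm, pow_mul, hup, one_pow]
        have huA : u ∈ A₀ := hK u huP hu1
        obtain ⟨B, hB, hxB⟩ := h.cov x
        have huB : u ∈ B := B.pow_mem hxB _
        have h5 : B = A₀ := h.key (cent_ne_top hZ hx1) hB hA₀
          (le_cent_of_el hab (h.nil B hB) huB (hPel _ huP))
          (le_cent_of_el hab (h.nil A₀ hA₀) huA (hPel _ huP))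
        rw [← h5]
        exact hxB
    · exact hz.trans (zpowers_le.2 hx₀A)
  -- `A₀` centralizes `P`
  have hA₀C : A₀ ≤ centralizer ((P : Subgroup G) : Set G) := by
    intro a ha
    rw [mem_centralizer_iff]
    intro x hx
    have h6 := le_cent_of_el hab (h.nil A₀ hA₀) (hPA hx) (hPel x hx) ha
    exact (mem_centralizer_singleton_iff.1 h6).symm
  -- `C(P) ≤ A₀`
  have hCA : centralizer ((P : Subgroup G) : Set G) ≤ A₀ := by
    intro z hz
    obtain ⟨y, t, hyt, hy, ht, hye, htc⟩ := Cfsg.Agent.Lib.Nilpotent.Parts.exists_parts z p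
    have hyC : y ∈ centralizer ((P : Subgroup G) : Set G) := (zpowers_le.2 hz) hy
    have htC : t ∈ centralizer ((P : Subgroup G) : Set G) := (zpowers_le.2 hz) ht
    have hyP : y ∈ (P : Subgroup G) := by
      refine mem_sylow_of_commute P ?_ ?_
      · obtain ⟨k, hk⟩ := hye
        exact El_of_pow hk
      · intro c hc
        exact (mem_centralizer_iff.1 hyC c hc).symm
    have htA : t ∈ A₀ := by
      have hcomm : Commute x₀ t := (mem_centralizer_iff.1 htC x₀ hx₀)
      obtain ⟨B, hB, hxB⟩ := h.cov (x₀ * t)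
      have hcop : Nat.Coprime (orderOf x₀) (orderOf t) := by
        obtain ⟨k, hk⟩ := hPel x₀ hx₀
        rw [hk]
        exact Nat.Coprime.pow_left _ htc.symm
      have h7 : x₀ ∈ B := (zpowers_le.2 hxB) (mem_zpowers_left_of_coprime hcomm hcop)
      have h8 : t ∈ B := (zpowers_le.2 hxB) (mem_zpowers_right_of_coprime hcomm hcop)
      have h9 := huniq0 B hB (B.pow_mem h7 _)
      rw [← h9]
      exact h8
    rw [hyt]
    exact A₀.mul_mem (hPA hyP) htA
  have : centralizer ((P : Subgroup G) : Set G) = A₀ := le_antisymm hCA hA₀C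
  rw [this]
  exact hA₀

/-- The condition on a Sylow subgroup used above. -/
def Gen (P : Subgroup G) (p : ℕ) : Prop :=
  ∃ x₀ ∈ P, ∃ e : ℕ, (∀ x ∈ P, x ^ p ^ (e + 1) = 1) ∧ x₀ ^ p ^ e ≠ 1 ∧ (1 ≤ e ∨ P ≤ zpowers x₀)

theorem sylAb_of (P : Sylow p G)
    (hc : ∀ x ∈ (P : Subgroup G), ∀ y ∈ (P : Subgroup G), x * y = y * x) : SylAb p G := by
  intro T x hx y hy
  obtain ⟨g, hg⟩ := exists_conjS_eq P T
  rw [← hg] at hx hy
  have h1 := hc _ (mem_conjS.1 hx) _ (mem_conjS.1 hy)
  have h2 : g * (g⁻¹ * x * g * (g⁻¹ * y * g)) * g⁻¹ = x * y := by group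
  have h3 : g * (g⁻¹ * y * g * (g⁻¹ * x * g)) * g⁻¹ = y * x := by group
  rw [← h2, ← h3, h1]

theorem Gen.conj {P T : Sylow p G} (h : Gen (P : Subgroup G) p) {g : G}
    (hg : ∀ x : G, x ∈ (T : Subgroup G) ↔ g⁻¹ * x * g ∈ (P : Subgroup G)) :
    Gen (T : Subgroup G) p := by
  obtain ⟨x₀, hx₀, e, he, hne, hgen⟩ := h
  have hpow : ∀ (x : G) (n : ℕ), (g * x * g⁻¹) ^ n = g * x ^ n * g⁻¹ := fun x n => by
    have := (MulAut.conj g).toMonoidHom.map_pow x n
    simpa using this
  refine ⟨g * x₀ * g⁻¹, (hg _).2 (by simpa [mul_assoc] using hx₀), e, ?_, ?_, ?_⟩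
  · intro x hx
    have h1 := he _ ((hg x).1 hx)
    have h2 : (g⁻¹ * x * g) ^ p ^ (e + 1) = g⁻¹ * x ^ p ^ (e + 1) * g := by
      have := (MulAut.conj g⁻¹).toMonoidHom.map_pow x (p ^ (e + 1))
      simpa using this.symm
    rw [h2] at h1
    have h4 : x ^ p ^ (e + 1) = g * (g⁻¹ * x ^ p ^ (e + 1) * g) * g⁻¹ := by group
    rw [h4, h1]
    group
  · rw [hpow]
    intro h1
    apply hne
    have h2 : x₀ ^ p ^ e = g⁻¹ * (g * x₀ ^ p ^ e * g⁻¹) * g := by group
    rw [h2, h1]
    group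
  · rcases hgen with h1 | h1
    · exact Or.inl h1
    · right
      intro x hx
      obtain ⟨k, hk⟩ := mem_zpowers_iff.1 (h1 ((hg x).1 hx))
      rw [mem_zpowers_iff]
      refine ⟨k, ?_⟩
      have := (MulAut.conj g).toMonoidHom.map_zpow x₀ k
      have h5 : (MulAut.conj g) (x₀ ^ k) = (MulAut.conj g) (g⁻¹ * x * g) := by rw [hk]
      have h6 : (MulAut.conj g) (g⁻¹ * x * g) = x := by
        simp [MulAut.conj_apply, mul_assoc]
      rw [h6] at h5
      rw [← h5]
      simp [MulAut.conj_apply]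

theorem centralizer_mem_of_gen (h : Cov 𝓐) (hZ : center G = ⊥) (hab : SylAb p G) (P : Sylow p G)
    (hg : Gen (P : Subgroup G) p) : centralizer ((P : Subgroup G) : Set G) ∈ 𝓐 := by
  obtain ⟨x₀, hx₀, e, he, hne, hgen⟩ := hg
  exact centralizer_mem h hZ hab P hx₀ e he hne hgen

/-- All Sylow subgroups give members. -/
theorem centralizer_mem_all (h : Cov 𝓐) (hZ : center G = ⊥) (hab : SylAb p G) (P : Sylow p G)
    (hg : Gen (P : Subgroup G) p) (T : Sylow p G) :
    centralizer ((T : Subgroup G) : Set G) ∈ 𝓐 := by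
  obtain ⟨g, hgT⟩ := exists_conjS_eq P T
  refine centralizer_mem_of_gen h hZ hab T (hg.conj (g := g) ?_)
  intro x
  rw [← hgT]
  exact mem_conjS

theorem sylow_eq_of_cent_eq (hab : SylAb p G) {P T : Sylow p G}
    (hC : centralizer ((P : Subgroup G) : Set G) = centralizer ((T : Subgroup G) : Set G)) :
    P = T := by
  have hle : (T : Subgroup G) ≤ P := by
    intro y hy
    have hyC : y ∈ centralizer ((P : Subgroup G) : Set G) := by
      rw [hC, mem_centralizer_iff]
      intro c hc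
      exact hab T c hc y hy
    refine mem_sylow_of_commute P (El.of_mem T.isPGroup' hy) ?_
    intro c hc
    exact (mem_centralizer_iff.1 hyC c hc).symm
  exact Sylow.ext (T.is_maximal' P.isPGroup' hle)

theorem centralizer_le_normalizer (P : Subgroup G) :
    centralizer (P : Set G) ≤ normalizer (P : Set G) := by
  intro c hc
  rw [mem_normalizer_iff]
  intro x
  have h0 : ∀ y ∈ P, c * y * c⁻¹ = y := fun y hy => by
    have := mem_centralizer_iff.1 hc y hy
    rw [← this]
    group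
  constructor
  · intro hx
    rwa [h0 x hx]
  · intro hx
    have h1 := h0 _ hx
    have h2 : c⁻¹ * (c * x * c⁻¹) * c = x := by group
    have h3 : c⁻¹ * (c * x * c⁻¹) * c = c * x * c⁻¹ := by
      calc c⁻¹ * (c * x * c⁻¹) * c = c⁻¹ * (c * (c * x * c⁻¹) * c⁻¹) * c := by rw [h1]
        _ = c * x * c⁻¹ := by group
    rw [← h2, h3]
    exact hx

/-- A proper subgroup containing `C_G(P)` normalizes `P`. -/
theorem le_normalizer_of_le (h : Cov 𝓐) (hZ : center G = ⊥) (hab : SylAb p G) (P : Sylow p G)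
    (hg : Gen (P : Subgroup G) p) {M : Subgroup G} (hM : M ≠ ⊤)
    (hCM : centralizer ((P : Subgroup G) : Set G) ≤ M) :
    M ≤ normalizer ((P : Subgroup G) : Set G) := by
  intro m hm
  -- the conjugate Sylow subgroup
  obtain ⟨T, hT⟩ : ∃ T : Sylow p G, ∀ x : G, x ∈ (T : Subgroup G) ↔ m⁻¹ * x * m ∈ (P : Subgroup G) := by
    refine ⟨m • P, fun x => ?_⟩
    rw [Sylow.coe_subgroup_smul, Subgroup.mem_pointwise_smul_iff_inv_smul_mem]
    simp [MulAut.smul_def, MulAut.conj_apply, mul_assoc]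
  have hCT : centralizer ((T : Subgroup G) : Set G) ≤ M := by
    intro c hc
    have h1 : m⁻¹ * c * m ∈ centralizer ((P : Subgroup G) : Set G) := by
      rw [mem_centralizer_iff]
      intro y hy
      have hy' : m * y * m⁻¹ ∈ (T : Subgroup G) := by
        rw [hT]
        have h0 : m⁻¹ * (m * y * m⁻¹) * m = y := by group
        rw [h0]
        exact hy
      have h2 := mem_centralizer_iff.1 hc _ hy'
      have h3 : y * (m⁻¹ * c * m) = m⁻¹ * (m * y * m⁻¹ * c) * m := by group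
      have h4 : m⁻¹ * c * m * y = m⁻¹ * (c * (m * y * m⁻¹)) * m := by group
      rw [h3, h4, h2]
    have h5 := hCM h1
    have h6 : c = m * (m⁻¹ * c * m) * m⁻¹ := by group
    rw [h6]
    exact M.mul_mem (M.mul_mem hm h5) (M.inv_mem hm)
  have hmem1 := centralizer_mem_of_gen h hZ hab P hg
  have hmem2 := centralizer_mem_all h hZ hab P hg T
  have heq := h.key hM hmem1 hmem2 hCM hCT
  have hPT := sylow_eq_of_cent_eq hab heq
  rw [mem_normalizer_iff]
  intro x
  constructor
  · intro hx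
    have : m * x * m⁻¹ ∈ (T : Subgroup G) := by
      rw [hT]
      simpa [mul_assoc] using hx
    rw [← hPT] at this
    exact this
  · intro hx
    have h1 : m * x * m⁻¹ ∈ (T : Subgroup G) := by
      rw [← hPT]
      exact hx
    have h2 := (hT _).1 h1
    simpa [mul_assoc] using h2

/-- `N_G(P)` is a maximal subgroup and the unique maximal subgroup above `C_G(P)`. -/
theorem normalizer_isCoatom (h : Cov 𝓐) (hZ : center G = ⊥) (hab : SylAb p G) (P : Sylow p G)
    (hg : Gen (P : Subgroup G) p) (hnn : ¬ (P : Subgroup G).Normal) :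
    IsCoatom (normalizer ((P : Subgroup G) : Set G)) := by
  have hne : normalizer ((P : Subgroup G) : Set G) ≠ ⊤ := by
    intro hn
    exact hnn (normalizer_eq_top_iff.1 hn)
  rcases eq_top_or_exists_le_coatom (normalizer ((P : Subgroup G) : Set G)) with h1 | ⟨M, hM, hNM⟩
  · exact absurd h1 hne
  · have hle := le_normalizer_of_le h hZ hab P hg hM.1
      ((centralizer_le_normalizer (P : Subgroup G)).trans hNM)
    have : normalizer ((P : Subgroup G) : Set G) = M := le_antisymm hNM hle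
    rw [this]
    exact hM

theorem eq_normalizer_of_coatom (h : Cov 𝓐) (hZ : center G = ⊥) (hab : SylAb p G) (P : Sylow p G)
    (hg : Gen (P : Subgroup G) p) (hnn : ¬ (P : Subgroup G).Normal) {M : Subgroup G}
    (hM : IsCoatom M) (hCM : centralizer ((P : Subgroup G) : Set G) ≤ M) :
    M = normalizer ((P : Subgroup G) : Set G) := by
  have hle := le_normalizer_of_le h hZ hab P hg hM.1 hCM
  have hco := normalizer_isCoatom h hZ hab P hg hnn
  by_contra hne
  exact hco.1 (hM.2 _ (lt_of_le_of_ne hle hne))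

/-- Two normalizers meet in a `p'`-group. -/
theorem not_dvd_card_inf (h : Cov 𝓐) (hZ : center G = ⊥) (hab : SylAb p G) (P : Sylow p G)
    (hg : Gen (P : Subgroup G) p) (g : G) (hgN : g ∉ normalizer ((P : Subgroup G) : Set G)) :
    ¬ p ∣ Nat.card ↥(normalizer ((P : Subgroup G) : Set G) ⊓
      (normalizer ((P : Subgroup G) : Set G)).map (MulAut.conj g).toMonoidHom) := by
  intro hd
  obtain ⟨⟨w, hw⟩, hwo⟩ := exists_prime_orderOf_dvd_card' p hd
  have hwo' : orderOf w = p := by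
    rw [← hwo]
    exact (Subgroup.orderOf_mk w hw).symm
  have hw1 : w ≠ 1 := by
    rintro rfl
    rw [orderOf_one] at hwo'
    exact hp.out.one_lt.ne hwo'
  have hwE : El p w := ⟨1, by rw [pow_one]; exact hwo'⟩
  obtain ⟨hwN, n, hnN, hnw⟩ := hw
  have hnw' : g * n * g⁻¹ = w := by simpa [MulAut.conj_apply] using hnw
  have hnE : El p n := by
    have : n = g⁻¹ * w * g⁻¹⁻¹ := by rw [← hnw']; group
    rw [this]
    exact hwE.conj g⁻¹
  have hwP : w ∈ (P : Subgroup G) := mem_of_mem_normalizer P hwE hwN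
  have hnP : n ∈ (P : Subgroup G) := mem_of_mem_normalizer P hnE hnN
  obtain ⟨T, hT⟩ : ∃ T : Sylow p G, ∀ x : G, x ∈ (T : Subgroup G) ↔ g⁻¹ * x * g ∈ (P : Subgroup G) := by
    refine ⟨g • P, fun x => ?_⟩
    rw [Sylow.coe_subgroup_smul, Subgroup.mem_pointwise_smul_iff_inv_smul_mem]
    simp [MulAut.smul_def, MulAut.conj_apply, mul_assoc]
  have hwT : w ∈ (T : Subgroup G) := by
    rw [hT, ← hnw']
    have : g⁻¹ * (g * n * g⁻¹) * g = n := by group
    rwa [this]
  have hCP : centralizer ((P : Subgroup G) : Set G) ≤ centralizer ({w} : Set G) := by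
    intro c hc
    rw [mem_centralizer_singleton_iff]
    exact (mem_centralizer_iff.1 hc w hwP).symm
  have hCT : centralizer ((T : Subgroup G) : Set G) ≤ centralizer ({w} : Set G) := by
    intro c hc
    rw [mem_centralizer_singleton_iff]
    exact (mem_centralizer_iff.1 hc w hwT).symm
  have heq := h.key (cent_ne_top hZ hw1) (centralizer_mem_of_gen h hZ hab P hg)
    (centralizer_mem_all h hZ hab P hg T) hCP hCT
  have hPT := sylow_eq_of_cent_eq hab heq
  apply hgN
  rw [mem_normalizer_iff]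
  intro x
  have hgT : ∀ y : G, y ∈ (P : Subgroup G) ↔ g⁻¹ * y * g ∈ (P : Subgroup G) := by
    intro y
    rw [← hT y, ← hPT]
  constructor
  · intro hx
    have : g⁻¹ * (g * x * g⁻¹) * g = x := by group
    rw [hgT, this]
    exact hx
  · intro hx
    have h1 := (hgT _).1 hx
    have : g⁻¹ * (g * x * g⁻¹) * g = x := by group
    rwa [this] at h1

/-- The exponent of a nontrivial Sylow subgroup. -/
theorem exists_exponent (P : Sylow p G) {x₁ : G} (hx₁ : x₁ ∈ (P : Subgroup G)) (hne : x₁ ≠ 1) :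
    ∃ e : ℕ, (∀ x ∈ (P : Subgroup G), x ^ p ^ (e + 1) = 1) ∧
      ∃ x₀ ∈ (P : Subgroup G), x₀ ^ p ^ e ≠ 1 := by
  classical
  have hex : ∃ k : ℕ, ∀ x ∈ (P : Subgroup G), x ^ p ^ k = 1 := by
    obtain ⟨n, hn⟩ := IsPGroup.iff_card.1 P.isPGroup'
    refine ⟨n, fun x hx => ?_⟩
    have := pow_card_eq_one' (x := (⟨x, hx⟩ : (P : Subgroup G)))
    rw [hn] at this
    simpa using congrArg Subtype.val this
  set k := Nat.find hex with hk
  have hk1 := Nat.find_spec hex
  have hk0 : k ≠ 0 := by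
    intro h0
    apply hne
    have := hk1 x₁ hx₁
    rw [← hk, h0] at this
    simpa using this
  obtain ⟨e, he⟩ := Nat.exists_eq_succ_of_ne_zero hk0
  refine ⟨e, ?_, ?_⟩
  · intro x hx
    have := hk1 x hx
    rw [← hk, he] at this
    exact this
  · have hlt : e < k := by omega
    have := Nat.find_min hex hlt
    push_neg at this
    obtain ⟨x₀, h1, h2⟩ := this
    exact ⟨x₀, h1, h2⟩

theorem ne_bot_of_not_normal (P : Subgroup G) (hnn : ¬ P.Normal) : ∃ x ∈ P, x ≠ 1 := by
  by_contra hc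
  push_neg at hc
  have : P = ⊥ := (Subgroup.eq_bot_iff_forall P).2 hc
  rw [this] at hnn
  exact hnn inferInstance

theorem gen_of_not_elem (P : Sylow p G) (hnn : ¬ (P : Subgroup G).Normal) {x₁ : G}
    (hx₁ : x₁ ∈ (P : Subgroup G)) (hne : x₁ ^ p ≠ 1) : Gen (P : Subgroup G) p := by
  obtain ⟨y, hy, hy1⟩ := ne_bot_of_not_normal (P : Subgroup G) hnn
  obtain ⟨e, he, x₀, hx₀, hx₀1⟩ := exists_exponent P hy hy1
  refine ⟨x₀, hx₀, e, he, hx₀1, Or.inl ?_⟩
  by_contra h0
  have h1 : e = 0 := by omega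
  subst h1
  apply hne
  have := he x₁ hx₁
  simpa using this

theorem gen_of_cyclic (P : Sylow p G) (hnn : ¬ (P : Subgroup G).Normal)
    (hc : IsCyclic ↥(P : Subgroup G)) : Gen (P : Subgroup G) p := by
  obtain ⟨y, hy, hy1⟩ := ne_bot_of_not_normal (P : Subgroup G) hnn
  obtain ⟨e, he, x₀, hx₀, hx₀1⟩ := exists_exponent P hy hy1
  obtain ⟨⟨g, hgP⟩, hg⟩ := hc.exists_generator
  have hle : (P : Subgroup G) ≤ zpowers g := by
    intro x hx
    obtain ⟨k, hk⟩ := mem_zpowers_iff.1 (hg ⟨x, hx⟩)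
    rw [mem_zpowers_iff]
    exact ⟨k, by simpa using congrArg Subtype.val hk⟩
  refine ⟨g, hgP, e, he, ?_, Or.inr hle⟩
  intro h1
  apply hx₀1
  obtain ⟨k, hk⟩ := mem_zpowers_iff.1 (hle hx₀)
  rw [← hk, ← zpow_natCast, ← zpow_mul, mul_comm, zpow_mul, zpow_natCast, h1, one_zpow]

theorem comm_of_cyclic (P : Subgroup G) (hc : IsCyclic ↥P) :
    ∀ x ∈ P, ∀ y ∈ P, x * y = y * x := by
  intro x hx y hy
  letI := IsCyclic.commGroup (α := ↥P)
  have := mul_comm (⟨x, hx⟩ : ↥P) ⟨y, hy⟩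
  simpa using congrArg Subtype.val this

end Cfsg.Agent.Lib.Nilpotent.MinCover
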